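import Cfsg.Agent.Lib.Q5R.Def
import Cfsg.Agent.Lib.Q4R.Cnt

/-!
# Q5 branch R5: monomial 2-groups with an elementary abelian quotient of order at least 32
-/

set_option autoImplicit false

namespace Cfsg.Lib.Q5R

open scoped MatrixGroups Matrix
open Cfsg.Geo Equiv Cfsg.Lib.Q4R
open Cfsg.Lib.Q5 (G5)

variable {K : Type*} [Field K] [IsAlgClosed K] [NeZero (2 : K)] {X Y : Subgroup (G5 K)}

omit [IsAlgClosed K] [NeZero (2 : K)] in
/-- The permutation parts form a 2-group acting on five points (`IsPGroup.nonempty_fixed_point_of_prime_not_dvd_card`);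
move the fixed point to `4`. -/
theorem exists_fix (t : Two X) (m : X ≤ NN (Fin 5) K) :
    ∃ k : G5 K, cj k X ≤ NN (Fin 5) K ∧ ∀ x ∈ cj k X, pp x 4 = 4 := by
  let φ : X →* Perm (Fin 5) := MonoidHom.mk' (fun x => pp x.1) fun x y => pp_mul (m x.2) (m y.2)
  have hp : IsPGroup 2 φ.range := by
    rintro ⟨_, x, rfl⟩
    obtain ⟨n, hn⟩ := t x x.2
    exact ⟨n, Subtype.ext ((pp_pow (m x.2) _).symm.trans (pp_scal hn))⟩
  obtain ⟨i, hi⟩ := hp.nonempty_fixed_point_of_prime_not_dvd_card (Fin 5) (by simp)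
  have k : ∀ x ∈ cj (pm (swap i 4)) X, ∃ y ∈ X, x = pm (swap i 4) * y * (pm (swap i 4))⁻¹ :=
    fun x hx => ⟨_, mem_cj.1 hx, by group⟩
  refine ⟨pm (swap i 4), fun x hx => ?_, fun x hx => ?_⟩ <;> obtain ⟨y, hy, rfl⟩ := k x hx
  · exact mul_mem (mul_mem (pm_mem _) (m hy)) (inv_mem (pm_mem _))
  · have e : pp y i = i := hi ⟨_, ⟨y, hy⟩, rfl⟩
    rw [pp_mul (mul_mem (pm_mem _) (m hy)) (inv_mem (pm_mem _)), pp_mul (pm_mem _) (m hy),
      pp_inv (pm_mem _), pp_pm]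
    simp [e]

/-- Permutations of four points as permutations of five points fixing the last one. -/
def e5 (σ : Perm (Fin 4)) : Perm (Fin 5) := finSuccEquivLast.symm.permCongr σ.optionCongr

theorem e5_mul : ∀ σ τ : Perm (Fin 4), e5 (σ * τ) = e5 σ * e5 τ := by decide +kernel

theorem e5_surj : ∀ σ : Perm (Fin 5), σ 4 = 4 → ∃ τ, e5 τ = σ := by decide +kernel

theorem e5_fact : ∀ τ : Perm (Fin 4), e5 τ 4 = 4 ∧
    (e5 τ * e5 τ = 1 → Perm.sign (e5 τ) = 1 → τ * τ = 1 ∧ Perm.sign τ = 1) ∧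
    (e5 τ ^ (15 * 4) = 1 ∧ (e5 τ ^ 4 = 1 → τ ^ 4 = 1)) ∧
    e5 (swap (τ 0) (τ 1)) = swap (e5 τ 0) (e5 τ 1) ∧
    e5 (swap (τ 2) (τ 3)) = swap (e5 τ 2) (e5 τ 3) := by decide +kernel

theorem perm5 {H L : Subgroup (Perm (Fin 5))} (fx : ∀ σ ∈ H, σ 4 = 4)
    (h4 : ∀ σ ∈ H, ∃ n, σ ^ 2 ^ n = 1) (sq : ∀ σ ∈ H, σ * σ ∈ L) :
    L.relIndex H ≤ 4 ∧ (2 < L.relIndex H →
      (∀ τ : Perm (Fin 5), τ 4 = 4 → τ * τ = 1 → Perm.sign τ = 1 → τ ∈ H) ∨
      ∃ σ : Perm (Fin 5), σ 4 = 4 ∧ swap (σ 0) (σ 1) ∈ H ∧ swap (σ 2) (σ 3) ∈ H) := by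
  let ι : Perm (Fin 4) →* Perm (Fin 5) := MonoidHom.mk' e5 e5_mul
  have e : (L.comap ι).relIndex (H.comap ι) = L.relIndex H := by
    rw [Subgroup.relIndex_comap, Subgroup.map_comap_eq_self (f := ι) fun σ h => e5_surj σ (fx σ h)]
  obtain ⟨p1, p2⟩ := perm_aux (H := H.comap ι) (L := L.comap ι) (fun σ h => by
    obtain ⟨n, hn⟩ := h4 _ h
    exact (e5_fact σ).2.2.1.2 (orderOf_dvd_iff_pow_eq_one.1 (Nat.Coprime.dvd_of_dvd_mul_left
      (Nat.Coprime.coprime_dvd_left (orderOf_dvd_of_pow_eq_one hn)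
        (Nat.Coprime.pow_left n (by norm_num))) (orderOf_dvd_of_pow_eq_one (e5_fact σ).2.2.1.1))))
    fun σ h => Subgroup.mem_comap.2 (map_mul ι σ σ ▸ sq _ h)
  rw [e] at p1 p2
  refine ⟨p1, fun h => (p2 h).imp (fun k τ a b c => ?_) fun ⟨σ, a, b⟩ =>
    ⟨e5 σ, (e5_fact σ).1, (e5_fact σ).2.2.2.1 ▸ a, (e5_fact σ).2.2.2.2 ▸ b⟩⟩
  obtain ⟨τ, rfl⟩ := e5_surj τ a
  exact k τ ((e5_fact τ).2.1 b c).1 ((e5_fact τ).2.1 b c).2

/-- The sign vectors with last entry `1`. -/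
def S16 (K : Type*) [Field K] : Subgroup (Fin 5 → Kˣ) :=
  (powMonoidHom 2).ker ⊓ (Pi.evalMonoidHom _ 4).ker

omit [IsAlgClosed K] [NeZero (2 : K)] in
theorem mem_S16 {a : Fin 5 → Kˣ} : a ∈ S16 K ↔ a * a = 1 ∧ a 4 = 1 := by simp [S16, pow_two]

omit [IsAlgClosed K] in
theorem neg_ne : (-1 : Kˣ) ≠ 1 := fun h => NeZero.ne (2 : K) (by
  have : (-1 : K) = 1 := by simpa using congrArg Units.val h
  linear_combination -this)

omit [IsAlgClosed K] in
theorem card_S16 : Nat.card (S16 K) = 16 := by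
  classical
  have bij : Function.Bijective fun (a : S16 K) (i : Fin 4) => a.1 i.castSucc = 1 := by
    refine ⟨fun a b e => Subtype.ext (funext fun i => ?_), fun p => ?_⟩
    refine Fin.lastCases ?_ (fun j => ?_) i
    · exact (mem_S16.1 a.2).2.trans (mem_S16.1 b.2).2.symm
    · have k : ∀ c : S16 K, c.1 j.castSucc = 1 ∨ c.1 j.castSucc = -1 := fun c =>
        (mul_self_eq_one_iff.1 (congrArg Units.val (congrFun (mem_S16.1 c.2).1 j.castSucc))).imp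
          Units.ext Units.ext
      have e1 : a.1 j.castSucc = 1 ↔ b.1 j.castSucc = 1 := (congrFun e j).to_iff
      by_cases h : a.1 j.castSucc = 1
      · rw [h, e1.1 h]
      · rw [(k a).resolve_left h, (k b).resolve_left (mt e1.2 h)]
    · refine ⟨⟨Fin.lastCases 1 fun i => if p i then 1 else -1, mem_S16.2 ⟨funext fun i => ?_,
        Fin.lastCases_last⟩⟩, funext fun i => ?_⟩
      refine Fin.lastCases ?_ (fun j => ?_) i
      · rw [Pi.mul_apply, Fin.lastCases_last]; simp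
      · simp only [Pi.mul_apply, Fin.lastCases_castSucc]; split_ifs <;> simp
      · simp only [Fin.lastCases_castSucc]; split_ifs with h <;> simp [h, neg_ne]
  simpa using Nat.card_eq_of_bijective _ bij

omit [IsAlgClosed K] [NeZero (2 : K)] in
theorem conj_rr5 {x : G5 K} (hx : x ∈ NN (Fin 5) K) (i : Fin 5) :
    x * rr i * x⁻¹ = rr (pp x i) := by
  obtain ⟨a, σ, rfl⟩ := hx
  rw [pp_mon, rr, rr, mul_inv_rev, show ∀ u v w : G5 K, u * v * w * (v⁻¹ * u⁻¹) = u * (v * w * v⁻¹) * u⁻¹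
    from fun u v w => by group, pm_dg_conj, ← map_inv, ← map_mul, ← map_mul, mul_inv_cancel_comm]
  congr 1; ext k
  simp only [Pi.mulSingle_apply, Perm.inv_eq_iff_eq]

theorem four_of {M : Type*} [Monoid M] : ∀ (n : ℕ) (a : M), a ^ 2 ^ n = 1 → a ^ 2 ≠ 1 →
    ∃ j, (a ^ j) ^ 4 = 1 ∧ (a ^ j) ^ 2 ≠ 1
  | 0, a, h, h' => absurd (by rw [show a = 1 by simpa using h, one_pow]) h'
  | n + 1, a, h, h' => by
    by_cases e : (a ^ 2) ^ 2 = 1
    · exact ⟨1, by rw [pow_one, ← e, ← pow_mul], by rwa [pow_one]⟩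
    · obtain ⟨j, hj⟩ := four_of n (a ^ 2) (by rw [← pow_mul, ← pow_succ', h]) e
      exact ⟨2 * j, by rwa [pow_mul]⟩

/-- Model: `Q4R.count`.  `B = {a | a 4 = 1, dg a ∈ X}` (finite), `C = {a | dg a ∈ Y}`, `H`, `L` the permutation parts of `X`,
`Y` (restricted to `Fin 4` for `Q4R.perm_aux`), `|X : Y| = |B : C| |H : L|`, `|H : L| ≤ 4`, `|B : C| ≤ |B : B²| = |Ω|`,
`Ω = {a ∈ B | a² = 1}` inside the sixteen sign vectors with `a 4 = 1`.
If `|Ω| = 16`: all `rr i ∈ X` (`rr 4 = -∏ rr i`); if `B ≠ Ω` a power of an element has order four (first alternative);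
if `B = Ω`: `x ∈ X` with `pp x i = j ≠ i` gives `rr j * rr i = ⁅x, rr i⁆ ∈ Y` (commutators are products of squares), so
`|B : C| ≤ 8` if `H ≠ 1` and `≤ 4` if `|H : L| > 2` (both alternatives of `perm_aux` give two such elements with disjoint
supports): the index is at most `16`.  If `|Ω| ≤ 8`: `|Ω| = |B : C| = 8`, `C ⊓ B = B²`, `|H : L| = 4`; `Ω` has index two
in the sign vectors; scalars are squares. -/
theorem count (f : Finite (Q4R.Sq X)) (t : Two X) (m : X ≤ NN (Fin 5) K) (fx : ∀ x ∈ X, pp x 4 = 4) (l : Y ≤ X)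
    (s : scalars (Fin 5) K ≤ Y) (sq : ∀ x ∈ X, x * x ∈ Y) (i16 : 16 < Y.relIndex X) :
    ((∀ i, rr i ∈ X) ∧ ∃ a : Fin 5 → Kˣ, dg a ∈ X ∧ a 4 = 1 ∧ a ^ 4 = 1 ∧ a ^ 2 ≠ 1) ∨
    ((∀ a b : Fin 5 → Kˣ, a * a = 1 → b * b = 1 → dg a ∉ X → dg b ∉ X → dg (a * b) ∈ X) ∧
      (∀ a : Fin 5 → Kˣ, dg a ∈ Y → ∃ b, dg b ∈ X ∧ a = b * b) ∧
      ((∀ τ : Perm (Fin 5), τ 4 = 4 → τ * τ = 1 → Perm.sign τ = 1 → ∃ x ∈ X, pp x = τ) ∨
        ∃ σ : Perm (Fin 5), σ 4 = 4 ∧ (∃ x ∈ X, pp x = swap (σ 0) (σ 1)) ∧ ∃ x ∈ X, pp x = swap (σ 2) (σ 3))) := by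
  let φ : X →* Perm (Fin 5) := MonoidHom.mk' (fun x => pp x.1) fun x y => pp_mul (m x.2) (m y.2)
  let B : Subgroup (Fin 5 → Kˣ) := X.comap dg ⊓ (Pi.evalMonoidHom _ 4).ker
  let ψ : B →* X := (dg.comp B.subtype).codRestrict X fun a => a.2.1
  let Y' := Y.subgroupOf X
  have nr : Y'.Normal := ⟨fun y hy x => by
    have : (x * y * x⁻¹ : X) = x * y * (x * y) * y⁻¹ * (x⁻¹ * x⁻¹) := by group
    rw [this]
    exact mul_mem (mul_mem (sq _ (x * y).2) (inv_mem hy)) (sq _ x⁻¹.2)⟩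
  have sp : ∀ a : Fin 5 → Kˣ, (dg a : G5 K) = sc (a 4) * dg fun i => (a 4)⁻¹ * a i := fun a => by
    rw [sc_eq, ← map_mul]; congr 1; ext i; simp
  have mB : ∀ a : Fin 5 → Kˣ, (fun i => (a 4)⁻¹ * a i) ∈ B ↔ dg a ∈ X := fun a => by
    rw [sp a, X.mul_mem_cancel_left (l (s (sc_mem _)))]
    exact and_iff_left (inv_mul_cancel _)
  have mS : ∀ a : Fin 5 → Kˣ, a * a = 1 → (fun i => (a 4)⁻¹ * a i) ∈ S16 K := fun a h =>
    mem_S16.2 ⟨funext fun j => by
      rw [Pi.mul_apply, mul_mul_mul_comm, ← mul_inv, show a 4 * a 4 = 1 from congrFun h 4,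
        show a j * a j = 1 from congrFun h j]; simp, inv_mul_cancel _⟩
  have sc1 : ∀ a ∈ B, (dg a : G5 K) ∈ scalars (Fin 5) K → a = 1 := fun a ha h => by
    obtain ⟨c, hc⟩ := mem_scal.1 h
    have h1 : a = fun _ => c := dg_inj hc
    exact h1.trans (((congrFun h1 4).symm.trans ha.2) ▸ rfl)
  have fB : Finite B := Finite.of_injective (fun a => (ψ a : Q4R.Sq X)) fun a b e =>
    inv_mul_eq_one.1 (Subtype.ext (sc1 _ (a⁻¹ * b).2 (by
      have := Subgroup.mem_subgroupOf.1 (QuotientGroup.eq.1 e)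
      rwa [← map_inv, ← map_mul] at this)))
  have e1 : ψ.range ⊔ Y' = Y' ⊔ φ.ker := by
    refine le_antisymm (sup_le (le_sup_of_le_right ?_) le_sup_left) (sup_le le_sup_right ?_)
    · rintro _ ⟨a, rfl⟩
      exact pp_dg _
    · rintro ⟨x, hx⟩ h1
      obtain ⟨a, rfl⟩ := dg_of_pp (m hx) h1
      have : (⟨dg a, hx⟩ : X) = ⟨_, l (s (sc_mem (a 4)))⟩ * ψ ⟨_, (mB a).2 hx⟩ := Subtype.ext (sp a)
      rw [this]
      exact mul_mem (Subgroup.mem_sup_right (s (sc_mem _))) (Subgroup.mem_sup_left ⟨_, rfl⟩)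
  have e2 : ((Y.comap dg).subgroupOf B).index * (Y'.map φ).relIndex φ.range = Y.relIndex X := by
    rw [← Subgroup.index_comap, Subgroup.comap_map_eq, ← e1]
    refine .trans ?_ (Subgroup.relIndex_mul_index (H := Y') (K := ψ.range ⊔ Y') le_sup_right)
    rw [Subgroup.relIndex_sup_right, ← Subgroup.index_comap]
    rfl
  obtain ⟨p1, p2⟩ := perm5 (H := φ.range) (L := Y'.map φ) (by rintro _ ⟨x, rfl⟩; exact fx x x.2) (by
    rintro _ ⟨x, rfl⟩
    exact (t x x.2).imp fun n hn => (pp_pow (m x.2) _).symm.trans (pp_scal hn))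
    (by rintro _ ⟨x, rfl⟩; exact ⟨x * x, sq _ x.2, map_mul _ _ _⟩)
  set D := (Y.comap dg).subgroupOf B
  let g : B →* B := powMonoidHom 2
  have le : g.range ≤ D := by
    rintro _ ⟨a, rfl⟩
    change dg ((a : Fin 5 → Kˣ) ^ 2) ∈ Y
    rw [pow_two, map_mul]
    exact sq _ a.2.1
  have c1 : g.range.index = Nat.card (B.subgroupOf (S16 K)) := by
    have h1 := g.range.card_mul_index
    rw [← g.ker.card_mul_index, Subgroup.index_ker, mul_comm] at h1
    rw [Nat.eq_of_mul_eq_mul_right Nat.card_pos h1, ← Subgroup.card_subtype,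
      ← Subgroup.card_subtype (S16 K), Subgroup.subgroupOf_map_subtype]
    refine congrArg (fun Z : Subgroup (Fin 5 → Kˣ) => Nat.card Z) ?_
    exact Subgroup.ext fun a => ⟨by
      rintro ⟨a, ha, rfl⟩
      exact ⟨a.2, congrArg Subtype.val ha, a.2.2⟩, fun ha => ⟨⟨a, ha.1⟩, Subtype.ext ha.2.1, rfl⟩⟩
  have c2 := Subgroup.relIndex_mul_index le
  have c3 := (B.subgroupOf (S16 K)).card_mul_index
  rw [card_S16, ← c1, ← c2] at c3
  rw [← e2] at i16
  have u5 : 4 < D.index := by nlinarith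
  have r2 : ∀ i : Fin 5, (Pi.mulSingle i (-1) : Fin 5 → Kˣ) * Pi.mulSingle i (-1) = 1 := fun i => by
    rw [← Pi.mulSingle_mul]; simp
  by_cases hS : S16 K ≤ B
  · have r : ∀ i, rr i ∈ X := fun i => (mB _).1 (hS (mS _ (r2 i)))
    refine .inl ⟨r, by_contra fun hc => ?_⟩
    have hB : B = S16 K := le_antisymm (fun a ha => ⟨by_contra fun h2 => hc (by
      obtain ⟨n, hn⟩ := t _ ha.1
      obtain ⟨j, hj⟩ := four_of n a (sc1 _ (pow_mem ha _) (by rwa [map_pow])) h2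
      exact ⟨a ^ j, (pow_mem ha j).1, (pow_mem ha j).2, hj⟩), ha.2⟩) hS
    have c4 := D.card_mul_index
    rw [show Nat.card B = 16 from hB ▸ card_S16] at c4
    have mv : ∀ σ ∈ φ.range, ∀ i j, σ i = j → i ≠ j → ∃ a : D, a.1.1 i = -1 ∧
        ∀ k, k ≠ i → k ≠ j → a.1.1 k = 1 := by
      rintro _ ⟨x, rfl⟩ i j e h
      have k : dg (Pi.mulSingle j (-1) * Pi.mulSingle i (-1)) ∈ Y := by
        rw [map_mul, ← e]
        change rr (pp x.1 i) * rr i ∈ Y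
        rw [← conj_rr5 (m x.2), show ∀ u v : G5 K, u * v * u⁻¹ * v =
          u * v * (u * v) * (v⁻¹ * u⁻¹ * v * (v⁻¹ * u⁻¹ * v)) from fun u v => by group]
        exact mul_mem (sq _ (mul_mem x.2 (r i)))
          (sq _ (mul_mem (mul_mem (inv_mem (r i)) (inv_mem x.2)) (r i)))
      have i4 : 4 ≠ i := by
        rintro rfl
        exact h ((fx x x.2).symm.trans e)
      have j4 : 4 ≠ j := by
        rintro rfl
        exact i4 ((φ x).injective ((fx x x.2).trans e.symm))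
      exact ⟨⟨⟨_, l k, by simp [i4, j4]⟩, k⟩, by simp [h], fun k a b => by simp [a, b]⟩
    have := Fintype.ofFinite D
    have d2 : 1 < Nat.card D := by
      by_contra hd
      have h0 : φ.range = ⊥ := (Subgroup.eq_bot_iff_forall _).2 fun σ hσ => Equiv.ext fun i =>
        by_contra fun e => hd (by
          obtain ⟨a, a1, -⟩ := mv σ hσ i _ rfl (Ne.symm e)
          exact Finite.one_lt_card_iff_nontrivial.2 ⟨a, 1, fun h => neg_ne (a1.symm.trans (h ▸ rfl))⟩)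
      rw [h0, Subgroup.relIndex_bot_right] at i16
      have : 0 < Nat.card D := Nat.card_pos
      nlinarith
    obtain ⟨σ, ⟨a, a1, a2⟩, b, b1, -⟩ : ∃ σ : Perm (Fin 5), (∃ a : D, a.1.1 (σ 0) = -1 ∧
        ∀ k, k ≠ σ 0 → k ≠ σ 1 → a.1.1 k = 1) ∧ ∃ a : D, a.1.1 (σ 2) = -1 ∧
        ∀ k, k ≠ σ 2 → k ≠ σ 3 → a.1.1 k = 1 := by
      rcases p2 (by nlinarith) with k | ⟨σ, -, k1, k2⟩
      · have := k (swap 0 1 * swap 2 3) (by decide) (by decide) (by decide)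
        exact ⟨1, mv _ this _ _ (by decide) (by decide), mv _ this _ _ (by decide) (by decide)⟩
      · exact ⟨σ, mv _ k1 _ _ (swap_apply_left _ _) (by simp), mv _ k2 _ _ (swap_apply_left _ _) (by simp)⟩
    have d3 : 2 < Nat.card D := by
      rw [Nat.card_eq_fintype_card, Fintype.two_lt_card_iff]
      exact ⟨1, a, b, fun h => neg_ne (a1.symm.trans (h ▸ rfl)),
        fun h => neg_ne (b1.symm.trans (h ▸ rfl)),
        fun h => neg_ne (b1.symm.trans (h ▸ a2 _ (by simp) (by simp)))⟩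
    have : D.index = 5 := by nlinarith
    rw [this] at c4
    omega
  · have n1 : (B.subgroupOf (S16 K)).index ≠ 1 := fun e =>
      hS (Subgroup.subgroupOf_eq_top.1 (Subgroup.index_eq_one.1 e))
    obtain ⟨w1, w2, w3⟩ : g.range.relIndex D = 1 ∧ D.index = 8 ∧ (B.subgroupOf (S16 K)).index = 2 := by
      generalize g.range.relIndex D = a, D.index = b, (B.subgroupOf (S16 K)).index = c at *
      have h1 : b ≤ 16 := Nat.le_of_dvd (by norm_num) ⟨a * c, by rw [← c3]; ring⟩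
      have h2 : c ≤ 16 := Nat.le_of_dvd (by norm_num) (Dvd.intro_left _ c3)
      clear * - c3 u5 n1 h1 h2
      interval_cases b <;> interval_cases c <;> omega
    refine .inr ⟨fun a b ha hb h1 h2 => (mB _).1 ?_, fun a ha => ?_,
      (p2 (by nlinarith)).imp (fun k τ a b c => ?_) ?_⟩
    · have := (Subgroup.mul_mem_iff_of_index_two w3 (a := ⟨_, mS a ha⟩) (b := ⟨_, mS b hb⟩)).2
        (iff_of_false (mt (mB a).1 h1) (mt (mB b).1 h2))
      convert Subgroup.mem_subgroupOf.1 this using 1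
      ext i
      simp only [Pi.mul_apply, mul_inv, Subgroup.coe_mul, mul_mul_mul_comm]
    · obtain ⟨b, hb⟩ := Subgroup.relIndex_eq_one.1 w1 (show (⟨_, (mB a).2 (l ha)⟩ : B) ∈ D from
        (Y.mul_mem_cancel_left (s (sc_mem _))).1 (sp a ▸ ha))
      obtain ⟨c, hc⟩ := IsAlgClosed.exists_eq_mul_self (a 4 : K)
      have c0 : c ≠ 0 := by
        rintro rfl
        simp at hc
      refine ⟨(fun _ : Fin 5 => Units.mk0 c c0) * b.1, map_mul (dg : _ →* G5 K) _ _ ▸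
        mul_mem (l (s (sc_mem _))) b.2.1, funext fun i => ?_⟩
      have h1 : b.1 i ^ 2 = (a 4)⁻¹ * a i := congrFun (congrArg Subtype.val hb) i
      rw [Pi.mul_apply, Pi.mul_apply, mul_mul_mul_comm, ← pow_two (b.1 i), h1,
        show Units.mk0 c c0 * Units.mk0 c c0 = a 4 from Units.ext hc.symm, mul_inv_cancel_left]
    · obtain ⟨x, hx⟩ := k τ a b c
      exact ⟨x, x.2, hx⟩
    · rintro ⟨σ, h4, ⟨x, hx⟩, y, hy⟩
      exact ⟨σ, h4, ⟨x, x.2, hx⟩, y, y.2, hy⟩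

end Cfsg.Lib.Q5R
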