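import Cfsg.Agent.Lib.Q5.Def

/-!
# Q5 branch R5: definitions (idempotent calculus; plan in `docs/Q5R.md`)
-/

set_option autoImplicit false

namespace Cfsg.Lib.Q5R

open scoped MatrixGroups Matrix
open Cfsg.Geo Equiv Cfsg.Lib.Q4R
open Cfsg.Lib.Q5 (G5)

/-- `5 × 5` matrices. -/
abbrev M5 (K : Type*) : Type _ := Matrix (Fin 5) (Fin 5) K

variable {K : Type*} [Field K]

/-- An idempotent of rank one. -/
def P1 (π : M5 K) : Prop := ∃ v φ : Fin 5 → K, φ ⬝ᵥ v = 1 ∧ π = Matrix.vecMulVec v φ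

/-- The matrix `X` is an element of `G`. -/
def In (G : Subgroup (G5 K)) (X : M5 K) : Prop := ∃ g ∈ G, g.1 = X

/-- `π ≤ ε`. -/
def Le (π ε : M5 K) : Prop := ε * π = π ∧ π * ε = π

/-- `π ⊥ ε`. -/
def Ot (π ε : M5 K) : Prop := ε * π = 0 ∧ π * ε = 0

/-- `-1` on the image of `ε`, `1` on the kernel. -/
structure Sg (G : Subgroup (G5 K)) (ε : M5 K) : Prop where
  idem : ε * ε = ε
  mem : In G (1 - (2 : K) • ε)

/-- A reflection in `G`. -/
structure Rf (G : Subgroup (G5 K)) (π : M5 K) : Prop where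
  p : P1 π
  s : Sg G π

/-- The standing hypotheses. -/
structure Ctx (G : Subgroup (G5 K)) : Prop where
  env : Env G
  sch : ∀ X : M5 K, (∀ g ∈ G, X * g.1 = g.1 * X) → ∃ c : K, X = c • (1 : M5 K)
  ntv : ¬ HasTv G

/-- The diagonal idempotent of a set of coordinates. -/
def ee (J : Finset (Fin 5)) : M5 K := Matrix.diagonal fun j => if j ∈ J then 1 else 0

variable [IsAlgClosed K]

/-- `i` on the image of `ε`, `1` on the kernel. -/
structure Wd (G : Subgroup (G5 K)) (ε : M5 K) : Prop where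
  idem : ε * ε = ε
  mem : In G (1 + ((ii K : K) - 1) • ε)

/-- The reflection `π` is mixed for `ε`, with components `π₁ ≤ ε` and `π₂ ⊥ ε`. -/
structure Mix (G : Subgroup (G5 K)) (ε π π₁ π₂ : M5 K) (t : K) : Prop where
  p1 : P1 π₁
  p2 : P1 π₂
  t0 : t ≠ 0
  t1 : t ≠ 1
  tr : (ε * π).trace = t
  e1 : ε * π * ε = t • π₁
  e2 : (1 - ε) * π * (1 - ε) = (1 - t) • π₂
  le : Le π₁ ε
  ot : Ot π₂ ε
  wd : Wd G (ε - π₁ + π₂)
  num : 2 * t = 1 ∨ 2 * (2 * t - 1) ^ 2 = 1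

/-- The two final configurations: a homology of order four, or `diag(i, i, 1, 1, 1)` with a reflection inside
and a reflection outside its plane. -/
def Cf (G : Subgroup (G5 K)) : Prop :=
  (∃ ε, P1 ε ∧ Wd G ε) ∨ ∃ ε ρ τ, Wd G ε ∧ ε.rank = 2 ∧ Rf G ρ ∧ Le ρ ε ∧ Rf G τ ∧ Ot τ ε

end Cfsg.Lib.Q5R
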